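import Cfsg.Agent.H328.NLPsp
import Cfsg.Agent.S1682

/-!
# The Held group: a nonsolvable 3-local subgroup from `Sp₄(4)` (rows for S2771)
-/

set_option autoImplicit false

namespace Cfsg.Agent.H476.NLHe

open Cfsg.Agent.H210.Loc

/-- **Held** -/
theorem nl_he {G : Type*} [Group G] [Finite G] (h : Cfsg.Spor.IsoHe G) : NL 3 G := by
  obtain ⟨e⟩ := h
  obtain ⟨N, K, fK, ftK, -, -, hK, ⟨f⟩⟩ := Cfsg.Agent.S1682.result
  have h1 : NL 3 (Cfsg.PSp 2 K) := Cfsg.Agent.H328.NLPsp.nl_psp le_rfl (fun _ => by rw [Nat.card_eq_fintype_card, hK])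
  have : Fact (Nat.Prime 3) := ⟨Nat.prime_three⟩
  have h2 : NL 3 (Matrix.symplecticGroup (Fin 2) K) :=
    NL.of_surjective (QuotientGroup.mk' _) (QuotientGroup.mk'_surjective _) h1
  have h3 : NL 3 Cfsg.Spor.He := NL.of_subgroup (NL.of_subgroup (NL.of_equiv f.symm h2))
  exact NL.of_equiv e.symm h3

end Cfsg.Agent.H476.NLHe
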